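import Cfsg.Agent.Lib.Helper16.B54.Defs
import Cfsg.Agent.Lib.Helper89.PSU32

/-! # Part B of S5559: explicit matrices of `SU_3(2)` over the concrete field `H4 = {z, o, w, u}` -/

set_option autoImplicit false

namespace Cfsg.Agent.Lib.Helper16.B54

open Cfsg.Agent.Lib.Helper27

abbrev S3 : Type := ↥(Cfsg.SU 3 H4 2)

def mx : Matrix (Fin 3) (Fin 3) H4 := !![1, 0, 0; 0, H4.w, 0; 0, 0, H4.u]
def my : Matrix (Fin 3) (Fin 3) H4 := !![0, 0, 1; 1, 0, 0; 0, 1, 0]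
def mc : Matrix (Fin 3) (Fin 3) H4 := !![H4.w, 0, 0; 0, H4.w, 0; 0, 0, H4.w]
def md : Matrix (Fin 3) (Fin 3) H4 := !![1, 0, 0; 0, 0, 1; 0, 1, 0]
def mu1 : Matrix (Fin 3) (Fin 3) H4 := !![1, H4.w, H4.w; H4.u, H4.u, H4.w; H4.u, H4.w, H4.u]
def mu2 : Matrix (Fin 3) (Fin 3) H4 := !![1, H4.u, H4.u; H4.w, H4.u, H4.w; H4.w, H4.w, H4.u]

end Cfsg.Agent.Lib.Helper16.B54
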