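import Cfsg.Agent.Lib.Helper16.B54.DefsS

set_option autoImplicit false

namespace Cfsg.Agent.Lib.Helper16.B54

open Cfsg.Agent.Lib.Helper27 Cfsg.Agent.Lib.Helper89.TT54
open Cfsg.Agent.Lib.Helper89.SU32 Cfsg.Agent.Lib.Helper5
open scoped commutatorElement

/-- explicit product of `3 × 3` matrices -/
def S1_pm (A B : Matrix (Fin 3) (Fin 3) H4) : Matrix (Fin 3) (Fin 3) H4 := fun i j => pr A B i j

theorem S1_mul (A B : Matrix (Fin 3) (Fin 3) H4) : A * B = S1_pm A B := by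
  ext i j
  exact mul_eq_pr A B i j

theorem S1_mk (M : Matrix (Fin 3) (Fin 3) H4) (h1 : M.det = 1)
    (h2 : ∀ i j : Fin 3, pr M.transpose (M.map (· ^ 2)) i j = if i = j then 1 else 0) :
    ∃ x : S3, x.1.1 = M :=
  ⟨mkSU M h1 ((preserves_hermForm_iff (q := 2) (by rw [H4.card_eq]; norm_num) _).2 (by
    ext i j
    rw [mul_eq_pr, h2, Matrix.one_apply])), rfl⟩

set_option maxRecDepth 100000 in
/-- [S1] -/
theorem exists_elts : ∃ x y c d u1 u2 : S3, x.1.1 = mx ∧ y.1.1 = my ∧ c.1.1 = mc ∧ d.1.1 = md ∧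
    u1.1.1 = mu1 ∧ u2.1.1 = mu2 := by
  obtain ⟨x, hx⟩ := S1_mk mx (by rw [Matrix.det_fin_three]; decide) (by decide)
  obtain ⟨y, hy⟩ := S1_mk my (by rw [Matrix.det_fin_three]; decide) (by decide)
  obtain ⟨c, hc⟩ := S1_mk mc (by rw [Matrix.det_fin_three]; decide) (by decide)
  obtain ⟨d, hd⟩ := S1_mk md (by rw [Matrix.det_fin_three]; decide) (by decide)
  obtain ⟨u1, h1⟩ := S1_mk mu1 (by rw [Matrix.det_fin_three]; decide) (by decide)
  obtain ⟨u2, h2⟩ := S1_mk mu2 (by rw [Matrix.det_fin_three]; decide) (by decide)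
  exact ⟨x, y, c, d, u1, u2, hx, hy, hc, hd, h1, h2⟩

end Cfsg.Agent.Lib.Helper16.B54
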