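import Cfsg.Agent.Lib.Helper16.B54.DefsS
import Cfsg.Agent.Lib.Helper16.B54.S1

set_option autoImplicit false

namespace Cfsg.Agent.Lib.Helper16.B54

open Cfsg.Agent.Lib.Helper27 Cfsg.Agent.Lib.Helper89.TT54
open Cfsg.Agent.Lib.Helper89.SU32 Cfsg.Agent.Lib.Helper5
open scoped commutatorElement

theorem S2_one : (1 : S3).1.1 = (1 : Matrix (Fin 3) (Fin 3) H4) := rfl

set_option maxRecDepth 100000 in
/-- [S2] -/
theorem elts_rel {x y c d u1 u2 : S3} (hx : x.1.1 = mx) (hy : y.1.1 = my) (hc : c.1.1 = mc) (hd : d.1.1 = md)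
    (h1 : u1.1.1 = mu1) (h2 : u2.1.1 = mu2) : Rel54 x y c d ∧ c ≠ 1 ∧ u1 * u2 = d * u2 * u1 := by
  refine ⟨⟨?_, ?_, ?_, ?_, ?_, ?_, ?_, ?_, ?_, ?_⟩, ?_, ?_⟩
  · apply SU_ext
    simp only [pow_succ, pow_zero, one_mul, SU_mul_coe, S2_one, hx, S1_mul]
    ext i j; show Cfsg.Agent.Lib.Helper89.PSU32.ent _ i j = Cfsg.Agent.Lib.Helper89.PSU32.ent _ i j; revert i j; decide
  · apply SU_ext
    simp only [pow_succ, pow_zero, one_mul, SU_mul_coe, S2_one, hy, S1_mul]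
    ext i j; show Cfsg.Agent.Lib.Helper89.PSU32.ent _ i j = Cfsg.Agent.Lib.Helper89.PSU32.ent _ i j; revert i j; decide
  · apply SU_ext
    simp only [pow_succ, pow_zero, one_mul, SU_mul_coe, S2_one, hc, S1_mul]
    ext i j; show Cfsg.Agent.Lib.Helper89.PSU32.ent _ i j = Cfsg.Agent.Lib.Helper89.PSU32.ent _ i j; revert i j; decide
  · apply SU_ext
    simp only [SU_mul_coe, S2_one, hd, S1_mul]
    ext i j; show Cfsg.Agent.Lib.Helper89.PSU32.ent _ i j = Cfsg.Agent.Lib.Helper89.PSU32.ent _ i j; revert i j; decide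
  · apply SU_ext
    simp only [SU_mul_coe, hx, hy, hc, S1_mul]
    ext i j; show Cfsg.Agent.Lib.Helper89.PSU32.ent _ i j = Cfsg.Agent.Lib.Helper89.PSU32.ent _ i j; revert i j; decide
  · apply SU_ext
    simp only [SU_mul_coe, hx, hc, S1_mul]
    ext i j; show Cfsg.Agent.Lib.Helper89.PSU32.ent _ i j = Cfsg.Agent.Lib.Helper89.PSU32.ent _ i j; revert i j; decide
  · apply SU_ext
    simp only [SU_mul_coe, hy, hc, S1_mul]
    ext i j; show Cfsg.Agent.Lib.Helper89.PSU32.ent _ i j = Cfsg.Agent.Lib.Helper89.PSU32.ent _ i j; revert i j; decide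
  · apply SU_ext
    simp only [SU_mul_coe, hd, hc, S1_mul]
    ext i j; show Cfsg.Agent.Lib.Helper89.PSU32.ent _ i j = Cfsg.Agent.Lib.Helper89.PSU32.ent _ i j; revert i j; decide
  · apply eq_inv_of_mul_eq_one_left
    apply SU_ext
    simp only [SU_mul_coe, S2_one, hd, hx, S1_mul]
    ext i j; show Cfsg.Agent.Lib.Helper89.PSU32.ent _ i j = Cfsg.Agent.Lib.Helper89.PSU32.ent _ i j; revert i j; decide
  · apply eq_inv_of_mul_eq_one_left
    apply SU_ext
    simp only [SU_mul_coe, S2_one, hd, hy, S1_mul]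
    ext i j; show Cfsg.Agent.Lib.Helper89.PSU32.ent _ i j = Cfsg.Agent.Lib.Helper89.PSU32.ent _ i j; revert i j; decide
  · intro e
    have h3 : c.1.1 0 0 = (1 : S3).1.1 0 0 := by rw [e]
    rw [hc, S2_one] at h3
    revert h3
    decide
  · apply SU_ext
    simp only [SU_mul_coe, hd, h1, h2, S1_mul]
    ext i j; show Cfsg.Agent.Lib.Helper89.PSU32.ent _ i j = Cfsg.Agent.Lib.Helper89.PSU32.ent _ i j; revert i j; decide

end Cfsg.Agent.Lib.Helper16.B54
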