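import Cfsg.Agent.Lib.Helper16.B54.DefsS
import Cfsg.Agent.Lib.Helper16.B54.S1

set_option autoImplicit false

namespace Cfsg.Agent.Lib.Helper16.B54

open Cfsg.Agent.Lib.Helper27 Cfsg.Agent.Lib.Helper89.TT54
open Cfsg.Agent.Lib.Helper89.SU32 Cfsg.Agent.Lib.Helper5
open scoped commutatorElement

set_option maxRecDepth 100000 in
/-- [S3] -/
theorem invol_mem {x y c d : S3} (hx : x.1.1 = mx) (hy : y.1.1 = my) (hc : c.1.1 = mc) (hd : d.1.1 = md)
    (t : S3) (ht : t * t = 1) (ht1 : t ≠ 1) : ∃ i j k : ℕ, t = x ^ i * y ^ j * c ^ k * d := by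
  have hT : ∀ i j, t.1.1 j i = t.1.1 i j * t.1.1 i j := by
    intro i j
    rw [← pow_two]
    exact hermitian_of_sq t.2 (congrArg Subtype.val ht) i j
  have h2 : t.1.1 * t.1.1 = 1 := by
    have := congrArg (fun s : S3 => s.1.1) ht
    exact this
  rcases one_or_swp t.1.1 hT h2 with h | ⟨p, a, ha, h⟩
  · exact absurd (SU_ext h) ht1
  · fin_cases p <;> cases a
    all_goals first
      | exact absurd rfl ha
      | skip
    · exact ⟨0, 1, 0, by
        apply SU_ext
        simp only [pow_succ, pow_zero, one_mul, mul_one, SU_mul_coe, hx, hy, hc, hd, h, S1_mul]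
        ext i j; show Cfsg.Agent.Lib.Helper89.PSU32.ent _ i j = Cfsg.Agent.Lib.Helper89.PSU32.ent _ i j; revert i j; decide⟩
    · exact ⟨1, 1, 1, by
        apply SU_ext
        simp only [pow_succ, pow_zero, one_mul, mul_one, SU_mul_coe, hx, hy, hc, hd, h, S1_mul]
        ext i j; show Cfsg.Agent.Lib.Helper89.PSU32.ent _ i j = Cfsg.Agent.Lib.Helper89.PSU32.ent _ i j; revert i j; decide⟩
    · exact ⟨2, 1, 2, by
        apply SU_ext
        simp only [pow_succ, pow_zero, one_mul, mul_one, SU_mul_coe, hx, hy, hc, hd, h, S1_mul]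
        ext i j; show Cfsg.Agent.Lib.Helper89.PSU32.ent _ i j = Cfsg.Agent.Lib.Helper89.PSU32.ent _ i j; revert i j; decide⟩
    · exact ⟨0, 2, 0, by
        apply SU_ext
        simp only [pow_succ, pow_zero, one_mul, mul_one, SU_mul_coe, hx, hy, hc, hd, h, S1_mul]
        ext i j; show Cfsg.Agent.Lib.Helper89.PSU32.ent _ i j = Cfsg.Agent.Lib.Helper89.PSU32.ent _ i j; revert i j; decide⟩
    · exact ⟨2, 2, 1, by
        apply SU_ext
        simp only [pow_succ, pow_zero, one_mul, mul_one, SU_mul_coe, hx, hy, hc, hd, h, S1_mul]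
        ext i j; show Cfsg.Agent.Lib.Helper89.PSU32.ent _ i j = Cfsg.Agent.Lib.Helper89.PSU32.ent _ i j; revert i j; decide⟩
    · exact ⟨1, 2, 2, by
        apply SU_ext
        simp only [pow_succ, pow_zero, one_mul, mul_one, SU_mul_coe, hx, hy, hc, hd, h, S1_mul]
        ext i j; show Cfsg.Agent.Lib.Helper89.PSU32.ent _ i j = Cfsg.Agent.Lib.Helper89.PSU32.ent _ i j; revert i j; decide⟩
    · exact ⟨0, 0, 0, by
        apply SU_ext
        simp only [pow_succ, pow_zero, one_mul, mul_one, SU_mul_coe, hx, hy, hc, hd, h, S1_mul]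
        ext i j; show Cfsg.Agent.Lib.Helper89.PSU32.ent _ i j = Cfsg.Agent.Lib.Helper89.PSU32.ent _ i j; revert i j; decide⟩
    · exact ⟨1, 0, 0, by
        apply SU_ext
        simp only [pow_succ, pow_zero, one_mul, mul_one, SU_mul_coe, hx, hy, hc, hd, h, S1_mul]
        ext i j; show Cfsg.Agent.Lib.Helper89.PSU32.ent _ i j = Cfsg.Agent.Lib.Helper89.PSU32.ent _ i j; revert i j; decide⟩
    · exact ⟨2, 0, 0, by
        apply SU_ext
        simp only [pow_succ, pow_zero, one_mul, mul_one, SU_mul_coe, hx, hy, hc, hd, h, S1_mul]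
        ext i j; show Cfsg.Agent.Lib.Helper89.PSU32.ent _ i j = Cfsg.Agent.Lib.Helper89.PSU32.ent _ i j; revert i j; decide⟩

end Cfsg.Agent.Lib.Helper16.B54
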